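import Cfsg.Agent.J4Fus72.Tools

/-!
Conjugates of the involution of a group of Janko-four type inside its centraliser: an outer one
gives an inner one, and one in the 2-core gives one in an elementary abelian subgroup of order
`2 ^ 11` containing the involution.
-/

set_option autoImplicit false

namespace CfsgLib.J4Type67

open scoped Pointwise

universe u

variable {G : Type u} [Group G] [Finite G] {z : G}
  (d : Setup ↥(Subgroup.centralizer ({z} : Set G)))

/-- An outer conjugate of the involution in its centraliser gives an inner one. -/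
theorem exists_inner_conjugate (hdz : (d.z : G) = z) (g : G)
    (hx : g * z * g⁻¹ ∈ Subgroup.centralizer ({z} : Set G)) (hne : g * z * g⁻¹ ≠ z) :
    ∃ y, ∃ hy : y ∈ Subgroup.centralizer ({z} : Set G),
      IsConj z y ∧ y ≠ z ∧ d.π ⟨y, hy⟩ ∈ InnM := by
  classical
  by_contra hno
  have hall : ∀ y (hy : y ∈ Subgroup.centralizer ({z} : Set G)), IsConj z y → y ≠ z →
      d.π ⟨y, hy⟩ ∉ InnM := fun y hy h1 h2 h3 => hno ⟨y, hy, h1, h2, h3⟩
  have hxc : g * z * g⁻¹ * z = z * (g * z * g⁻¹) := Subgroup.mem_centralizer_singleton_iff.1 hx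
  have hzz : z * z = 1 := by rw [← hdz]; exact congrArg Subtype.val d.zz
  have hbC : g⁻¹ * z * g ∈ Subgroup.centralizer ({z} : Set G) := by
    rw [Subgroup.mem_centralizer_singleton_iff]
    calc g⁻¹ * z * g * z = g⁻¹ * (z * (g * z * g⁻¹)) * g := by group
      _ = g⁻¹ * (g * z * g⁻¹ * z) * g := by rw [hxc]
      _ = z * (g⁻¹ * z * g) := by group
  obtain ⟨b, hbdef⟩ : ∃ b : ↥(Subgroup.centralizer ({z} : Set G)), b = ⟨g⁻¹ * z * g, hbC⟩ :=
    ⟨_, rfl⟩
  have hbv : (b : G) = g⁻¹ * z * g := by rw [hbdef]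
  have hbb : b * b = 1 := Subtype.ext (by
    show (b : G) * b = 1
    rw [hbv, show g⁻¹ * z * g * (g⁻¹ * z * g) = g⁻¹ * (z * z) * g by group, hzz]
    group)
  have hbinv : b⁻¹ = b := inv_eq_of_mul_eq_one_right hbb
  have hbout : d.π b ∉ InnM := by
    subst hbdef
    refine hall _ hbC (isConj_iff.2 ⟨g⁻¹, by group⟩) fun e => hne ?_
    calc g * z * g⁻¹ = g * (g⁻¹ * z * g) * g⁻¹ := by rw [e]
      _ = z := by group
  -- transfer of elements commuting with `b`
  have hT : ∀ c : ↥(Subgroup.centralizer ({z} : Set G)), Commute c b →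
      g * c * g⁻¹ ∈ Subgroup.centralizer ({z} : Set G) := by
    intro c hc
    have h : (c : G) * b = b * c := congrArg Subtype.val hc.eq
    rw [hbv] at h
    rw [Subgroup.mem_centralizer_singleton_iff]
    calc g * c * g⁻¹ * z = g * (c * (g⁻¹ * z * g)) * g⁻¹ := by group
      _ = g * (g⁻¹ * z * g * c) * g⁻¹ := by rw [h]
      _ = z * (g * c * g⁻¹) := by group
  obtain ⟨P, hP⟩ : ∃ P : ↥(Subgroup.centralizer ({z} : Set G)) → Prop,
      ∀ c, P c ↔ ∃ hc : g * c * g⁻¹ ∈ Subgroup.centralizer ({z} : Set G),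
        d.π ⟨g * c * g⁻¹, hc⟩ ∈ InnM := ⟨_, fun c => Iff.rfl⟩
  have hPmul : ∀ c c', Commute c b → Commute c' b → (P (c * c') ↔ (P c ↔ P c')) := by
    intro c c' h h'
    have h1 := hT c h
    have h2 := hT c' h'
    have h12 := hT (c * c') (h.mul_left h')
    have e : (⟨g * ↑(c * c') * g⁻¹, h12⟩ : ↥(Subgroup.centralizer ({z} : Set G))) =
        ⟨g * c * g⁻¹, h1⟩ * ⟨g * c' * g⁻¹, h2⟩ := Subtype.ext (by
      show g * (↑c * ↑c') * g⁻¹ = g * c * g⁻¹ * (g * c' * g⁻¹)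
      group)
    simp only [hP, exists_prop_of_true h1, exists_prop_of_true h2, exists_prop_of_true h12]
    rw [e, map_mul, Subgroup.mul_mem_iff_of_index_two inn_index]
  have hPb : P b := by
    have h1 := hT b (Commute.refl _)
    refine (hP b).2 ⟨h1, ?_⟩
    have e : (⟨g * b * g⁻¹, h1⟩ : ↥(Subgroup.centralizer ({z} : Set G))) = d.z := Subtype.ext (by
      show g * (b : G) * g⁻¹ = d.z
      rw [hbv, hdz]; group)
    rw [e, (MonoidHom.mem_ker).1 (d.E_le d.zmem)]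
    exact one_mem _
  have hPz : ¬ P d.z := by
    rw [hP]
    rintro ⟨h1, h2⟩
    refine hall _ h1 (isConj_iff.2 ⟨g, by rw [hdz]⟩) ?_ h2
    rw [hdz]; exact hne
  -- the commutators of the 2-core with `b`
  obtain ⟨s, hs⟩ : ∃ s : ↥(Subgroup.centralizer ({z} : Set G)) → _,
      ∀ f, s f = f * b * f⁻¹ * b := ⟨_, fun _ => rfl⟩
  have hsE : ∀ f ∈ d.E, s f ∈ d.E := fun f hf => by
    rw [hs, show f * b * f⁻¹ * b = f * (b * f⁻¹ * b⁻¹) by rw [hbinv]; group]
    exact mul_mem hf (d.normalE b _ (inv_mem hf))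
  have hsinv : ∀ f, b * s f * b = (s f)⁻¹ := fun f => by
    rw [hs, show b * (f * b * f⁻¹ * b) * b = b * (f * b * f⁻¹) * (b * b) by group, hbb]
    conv_rhs => rw [show (f * b * f⁻¹ * b)⁻¹ = b⁻¹ * (f * b⁻¹ * f⁻¹) by group, hbinv]
    rw [mul_one]
  have hscomm : ∀ f, s f * s f = 1 → Commute (s f) b := fun f h => by
    have h1 : b * s f * b = s f := (hsinv f).trans (inv_eq_of_mul_eq_one_right h)
    show s f * b = b * s f
    conv_lhs => rw [← h1]
    rw [mul_assoc, hbb, mul_one]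
  have hsP : ∀ f, s f * s f = 1 → s f ≠ 1 → ¬ P (s f) := by
    intro f h h1 hPs
    have hc := hscomm f h
    have h2 := (hPmul _ _ hc (Commute.refl b)).2 (iff_of_true hPs hPb)
    obtain ⟨h3, h4⟩ := (hP _).1 h2
    have e : g * ↑(s f * b) * g⁻¹ = g * (f : G) * g⁻¹ * z * (g * (f : G) * g⁻¹)⁻¹ := by
      rw [hs, show f * b * f⁻¹ * b * b = f * b * f⁻¹ by rw [mul_assoc _ b b, hbb, mul_one]]
      show g * ((f : G) * b * (f : G)⁻¹) * g⁻¹ = _
      rw [hbv]; group
    refine hall _ h3 (isConj_iff.2 ⟨g * f * g⁻¹, e.symm⟩) (fun he => h1 ?_) h4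
    have hb1 : s f * b = b := Subtype.ext (by
      rw [hbv]
      calc (↑(s f * b) : G) = g⁻¹ * (g * ↑(s f * b) * g⁻¹) * g := by group
        _ = _ := by rw [he])
    exact mul_eq_right.1 hb1
  have hscomp : ∀ f ∈ d.E, ∀ f' ∈ d.E,
      ∃ ε, (ε = 1 ∨ ε = d.z) ∧ f * s f' * f⁻¹ = ε * s f' ∧ s (f * f') = ε * (s f' * s f) := by
    intro f hf f' hf'
    refine ⟨f * s f' * f⁻¹ * (s f')⁻¹, d.commE f hf _ (hsE f' hf'), by group, ?_⟩
    rw [show f * s f' * f⁻¹ * (s f')⁻¹ * (s f' * s f) = f * s f' * f⁻¹ * s f by group, hs, hs, hs]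
    rw [show f * (f' * b * f'⁻¹ * b) * f⁻¹ * (f * b * f⁻¹ * b) =
      f * f' * b * f'⁻¹ * (b * b) * f⁻¹ * b by group, hbb]
    group
  have hεc : ∀ ε, ε = 1 ∨ ε = d.z → ∀ c, Commute ε c := by
    rintro ε (rfl | rfl) c
    exacts [Commute.one_left c, d.zc c]
  have hεsq : ∀ ε, ε = 1 ∨ ε = d.z → ε * ε = 1 := by
    rintro ε (rfl | rfl)
    exacts [one_mul 1, d.zz]
  have hss : ∀ f ∈ d.E, ∀ f' ∈ d.E, Commute (s f) (s f') := by
    intro f hf f' hf'
    obtain ⟨ε, hε, -, he⟩ := hscomp f hf f' hf'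
    have h := hsinv (f * f')
    rw [he] at h
    have hbε : ∀ c, b * (ε * c) * b = ε * (b * c * b) := fun c => by
      rw [← mul_assoc b ε, ← (hεc ε hε b).eq]; group
    rw [hbε, show b * (s f' * s f) * b = b * s f' * b * (b * s f * b) by
      rw [show b * s f' * b * (b * s f * b) = b * s f' * (b * b) * s f * b by group, hbb]; group,
      hsinv, hsinv, mul_inv_rev ε, inv_eq_of_mul_eq_one_right (hεsq ε hε),
      ← (hεc ε hε _).eq, mul_inv_rev (s f')] at h
    have h2 := congrArg (·⁻¹) (mul_left_cancel h)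
    simp only [mul_inv_rev, inv_inv] at h2
    exact h2
  -- the squares
  let sq : d.E →* ↥(Subgroup.centralizer ({z} : Set G)) :=
    { toFun := fun f => s f * s f
      map_one' := by
        have h1 : s 1 = 1 := by rw [hs]; simp [hbb]
        show s 1 * s 1 = 1
        rw [h1, one_mul]
      map_mul' := fun f f' => by
        obtain ⟨ε, hε, -, he⟩ := hscomp f f.2 f' f'.2
        show s (f.1 * f'.1) * s (f.1 * f'.1) = s f.1 * s f.1 * (s f'.1 * s f'.1)
        rw [he, (hεc ε hε _).symm.mul_mul_mul_comm, hεsq ε hε, one_mul,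
          (hss f f.2 f' f'.2).mul_mul_mul_comm]
        have hh := hss f f.2 f' f'.2
        exact ((hh.mul_left hh).mul_right (hh.mul_left hh)).eq.symm }
  have hsqr : Nat.card sq.range ≤ 2 := by
    rw [← d.card_Z]
    refine Subgroup.card_le_of_le ?_
    rintro _ ⟨f, rfl⟩
    exact d.mem_Z.2 (d.sqE _ (hsE f f.2))
  have hker : 4096 ≤ Nat.card sq.ker := by
    have h := Subgroup.card_mul_index sq.ker
    rw [Subgroup.index_ker, d.cardE] at h
    by_contra hlt
    push_neg at hlt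
    have : Nat.card sq.ker * Nat.card sq.range ≤ 4095 * 2 :=
      Nat.mul_le_mul (by omega) hsqr
    omega
  -- the image in the module
  let ψ : d.E →* d.W :=
    { toFun := fun f => d.q (s f) (hsE f f.2)
      map_one' := by
        rw [d.q_one_iff]
        show s 1 ∈ d.Z
        rw [hs]; simp [hbb]
      map_mul' := fun f f' => by
        obtain ⟨ε, hε, -, he⟩ := hscomp f f.2 f' f'.2
        rw [← d.q_mul, d.q_eq_iff]
        show (s (f.1 * f'.1))⁻¹ * (s f.1 * s f'.1) ∈ d.Z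
        rw [he, mul_inv_rev, (hss f f.2 f' f'.2).eq,
          (hεc ε hε _).inv_left.symm.eq, mul_assoc, inv_mul_cancel, mul_one]
        exact inv_mem (d.mem_Z.2 hε) }
  have hψker : Nat.card ψ.ker ≤ 128 := by
    let Fx : Subgroup d.W :=
      { carrier := {w | d.actH b w = w}
        one_mem' := map_one _
        mul_mem' := fun {x y} hx hy => by
          show d.actH b (x * y) = x * y
          rw [map_mul, hx, hy]
        inv_mem' := fun {x} hx => by
          show d.actH b x⁻¹ = x⁻¹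
          rw [map_inv, hx] }
    have h : ψ.ker.map d.E.subtype ≤ d.pre Fx := by
      rintro _ ⟨f, hf, rfl⟩
      refine d.mem_pre.2 ⟨f.2, ?_⟩
      show d.actH b (d.q f.1 f.2) = d.q f.1 f.2
      rw [d.conj_mem_Z f.2]
      have h1 : s f.1 ∈ d.Z := d.q_one_iff.1 hf
      have h2 : b * (f : ↥(Subgroup.centralizer ({z} : Set G))) * b⁻¹ * (f.1)⁻¹ =
          (s f.1)⁻¹ := by
        rw [hs, hbinv]
        conv_rhs => rw [show (f.1 * b * f.1⁻¹ * b)⁻¹ = b⁻¹ * f.1 * b⁻¹ * f.1⁻¹ by group, hbinv]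
      rw [h2]
      exact inv_mem h1
    have h2 := Subgroup.card_le_of_le h
    rw [Subgroup.card_map_of_injective d.E.subtype_injective, d.card_pre] at h2
    exact h2.trans (Nat.mul_le_mul_left 2 (d.card_fix_outer hbout))
  haveI := d.rep.finite_W
  have hI : 32 ≤ Nat.card (sq.ker.map ψ) := by
    let r : sq.ker →* d.W := ψ.comp sq.ker.subtype
    have h := Subgroup.card_mul_index r.ker
    rw [Subgroup.index_ker] at h
    have hr : r.range = sq.ker.map ψ := by
      rw [MonoidHom.range_eq_map, ← Subgroup.map_map, ← MonoidHom.range_eq_map,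
        Subgroup.range_subtype]
    have hk : Nat.card r.ker ≤ 128 := le_trans
      (Nat.card_le_card_of_injective (fun x : r.ker => (⟨x.1.1, x.2⟩ : ψ.ker))
        fun x y e => Subtype.ext (Subtype.ext (congrArg Subtype.val e :))) hψker
    rw [hr] at h
    by_contra hlt
    push_neg at hlt
    have : Nat.card r.ker * Nat.card (sq.ker.map ψ) ≤ 128 * 31 :=
      Nat.mul_le_mul hk (by omega)
    omega
  have pick : ∀ l : Finset d.W, l.card < 32 → ∃ f : d.E, sq f = 1 ∧ ψ f ∉ l := fun l hl => by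
    by_contra h
    push_neg at h
    have hsub : ((sq.ker.map ψ : Subgroup d.W) : Set d.W) ⊆ ↑l := by
      rintro _ ⟨f, hf, rfl⟩
      exact h f hf
    have := Set.ncard_le_ncard hsub l.finite_toSet
    rw [Set.ncard_coe_finset, ← Nat.card_coe_set_eq] at this
    have hI' : 32 ≤ Nat.card ((sq.ker.map ψ : Subgroup d.W) : Set d.W) := hI
    omega
  -- two independent elements do not commute in the required sense
  have key : ∀ f f' : d.E, sq f = 1 → sq f' = 1 → ψ f ≠ 1 → ψ f' ≠ 1 → ψ (f * f') ≠ 1 →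
      f.1 * s f'.1 * f.1⁻¹ = d.z * s f'.1 := by
    intro f f' h h' hn hn' hnn
    obtain ⟨ε, hε, he1, he2⟩ := hscomp f f.2 f' f'.2
    rcases hε with rfl | rfl
    · exfalso
      rw [one_mul] at he2
      have hne1 : ∀ e : d.E, ψ e ≠ 1 → s e.1 ≠ 1 := fun e he h1 => he (d.q_one_iff.2 (by
        show s e.1 ∈ d.Z
        rw [h1]; exact one_mem _))
      have hm : sq (f * f') = 1 := by rw [map_mul, h, h', one_mul]
      have hP1 := hsP _ h (hne1 f hn)
      have hP2 := hsP _ h' (hne1 f' hn')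
      have h12 := hsP _ hm (hne1 (f * f') hnn)
      refine h12 ?_
      show P (s (f.1 * f'.1))
      rw [he2]
      exact (hPmul _ _ (hscomm _ h') (hscomm _ h)).2 (iff_of_false hP2 hP1)
    · exact he1
  obtain ⟨f₁, hq₁, hn₁⟩ := pick {1} (by simp)
  obtain ⟨f₂, hq₂, hn₂⟩ := pick {1, ψ f₁}
    (lt_of_le_of_lt Finset.card_le_two (by norm_num))
  obtain ⟨f₃, hq₃, hn₃⟩ := pick {1, ψ f₁, ψ f₂, ψ (f₁ * f₂)}
    (lt_of_le_of_lt Finset.card_le_four (by norm_num))
  simp only [Finset.mem_insert, Finset.mem_singleton, not_or] at hn₁ hn₂ hn₃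
  have hsqW : ∀ w : d.W, w * w = 1 := d.rep.sq
  have hne2 : ∀ f f' : d.E, ψ f' ≠ ψ f → ψ (f * f') ≠ 1 := fun f f' h e => h (by
    rw [map_mul] at e
    rw [← inv_eq_of_mul_eq_one_right e, inv_eq_of_mul_eq_one_right (hsqW _)])
  have k12 := key f₁ f₂ hq₁ hq₂ hn₁ hn₂.1 (hne2 _ _ hn₂.2)
  have k13 := key f₁ f₃ hq₁ hq₃ hn₁ hn₃.1 (hne2 _ _ hn₃.2.1)
  have k123 := key f₁ (f₂ * f₃) hq₁ (by rw [map_mul, hq₂, hq₃, one_mul]) hn₁
    (hne2 _ _ hn₃.2.2.1) (by
      rw [← mul_assoc]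
      exact hne2 _ _ hn₃.2.2.2)
  obtain ⟨ε, hε, -, he⟩ := hscomp f₂ f₂.2 f₃ f₃.2
  have e : f₁.1 * s (f₂.1 * f₃.1) * f₁.1⁻¹ = s (f₂.1 * f₃.1) := by
    rw [he, show f₁.1 * (ε * (s f₃.1 * s f₂.1)) * f₁.1⁻¹ =
      f₁.1 * ε * f₁.1⁻¹ * ((f₁.1 * s f₃.1 * f₁.1⁻¹) * (f₁.1 * s f₂.1 * f₁.1⁻¹)) by group, k12, k13,
      ← (hεc ε hε f₁.1).eq, mul_inv_cancel_right]
    rw [(d.zc (s f₃.1)).symm.mul_mul_mul_comm, d.zz, one_mul]
  change f₁.1 * s (f₂.1 * f₃.1) * f₁.1⁻¹ = _ at k123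
  rw [e] at k123
  exact d.zne (mul_eq_right.1 k123.symm)

/-- A conjugate of the involution in the 2-core gives one in an elementary abelian subgroup of
order `2 ^ 11` containing the involution. -/
theorem exists_conjugate_elementary (hdz : (d.z : G) = z)
    (hR5 : ∀ a : M, ∀ w ∈ d.rep.F (conjS a duad), ∃ b : M, w ∈ d.rep.F (conjS b hex)) (g : G)
    (hx : g * z * g⁻¹ ∈ Subgroup.centralizer ({z} : Set G)) (hne : g * z * g⁻¹ ≠ z)
    (hxE : (⟨g * z * g⁻¹, hx⟩ : ↥(Subgroup.centralizer ({z} : Set G))) ∈ d.E) :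
    ∃ (V : Subgroup G) (x₀ : G), Cfsg.IsElementaryAbelian 2 V ∧ Nat.card ↥V = 2 ^ 11 ∧
      z ∈ V ∧ x₀ ∈ V ∧ x₀ ≠ z ∧ IsConj z x₀ := by
  classical
  haveI : Fact (Nat.Prime 2) := ⟨Nat.prime_two⟩
  have hzz : z * z = 1 := by rw [← hdz]; exact congrArg Subtype.val d.zz
  have hxc : g * z * g⁻¹ * z = z * (g * z * g⁻¹) := Subgroup.mem_centralizer_singleton_iff.1 hx
  have hbC : g⁻¹ * z * g ∈ Subgroup.centralizer ({z} : Set G) := by
    rw [Subgroup.mem_centralizer_singleton_iff]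
    calc g⁻¹ * z * g * z = g⁻¹ * (z * (g * z * g⁻¹)) * g := by group
      _ = g⁻¹ * (g * z * g⁻¹ * z) * g := by rw [hxc]
      _ = z * (g⁻¹ * z * g) := by group
  set x : ↥(Subgroup.centralizer ({z} : Set G)) := ⟨g * z * g⁻¹, hx⟩ with hxdef
  obtain ⟨b, hbdef⟩ : ∃ b : ↥(Subgroup.centralizer ({z} : Set G)), b = ⟨g⁻¹ * z * g, hbC⟩ :=
    ⟨_, rfl⟩
  have hbv : (b : G) = g⁻¹ * z * g := by rw [hbdef]
  have hbne : (b : G) ≠ z := fun e => hne (by
    calc g * z * g⁻¹ = g * b * g⁻¹ := by rw [e]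
      _ = z := by rw [hbv]; group)
  have hb1 : b ≠ 1 := fun e => by
    have : g⁻¹ * z * g = 1 := by rw [← hbv, e]; rfl
    refine d.zne (Subtype.ext (hdz.trans ?_))
    calc z = g * (g⁻¹ * z * g) * g⁻¹ := by group
      _ = 1 := by rw [this]; group
  set CX := d.E ⊓ Subgroup.centralizer ({x} : Set _) with hCX
  have hCXc : ∀ c : CX, g⁻¹ * (c : G) * g ∈ Subgroup.centralizer ({z} : Set G) := fun c => by
    have h : (c : G) * x = x * c :=
      congrArg Subtype.val (Subgroup.mem_centralizer_singleton_iff.1 c.2.2)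
    rw [Subgroup.mem_centralizer_singleton_iff]
    calc g⁻¹ * (c : G) * g * z = g⁻¹ * ((c : G) * x) * g := by
          show _ = g⁻¹ * ((c : G) * (g * z * g⁻¹)) * g
          group
      _ = g⁻¹ * (x * (c : G)) * g := by rw [h]
      _ = z * (g⁻¹ * (c : G) * g) := by
          show g⁻¹ * (g * z * g⁻¹ * (c : G)) * g = _
          group
  let φ : CX →* ↥(Subgroup.centralizer ({z} : Set G)) :=
    { toFun := fun c => ⟨g⁻¹ * (c : G) * g, hCXc c⟩
      map_one' := Subtype.ext (by simp)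
      map_mul' := fun c c' => Subtype.ext (by
        show g⁻¹ * ((c : G) * (c' : G)) * g = g⁻¹ * (c : G) * g * (g⁻¹ * (c' : G) * g)
        group) }
  have hφ : Function.Injective φ := fun c c' h => by
    have h' : g⁻¹ * (c : G) * g = g⁻¹ * (c' : G) * g := congrArg Subtype.val h
    exact Subtype.ext (Subtype.ext (mul_left_cancel (mul_right_cancel h')))
  have hφb : ∀ c : CX, c.1 = 1 ∨ c.1 = d.z → φ c = 1 ∨ φ c = b := by
    rintro c (h | h)
    · left
      rw [show c = 1 from Subtype.ext h, map_one]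
    · right
      refine Subtype.ext ?_
      show g⁻¹ * (c : G) * g = b
      rw [h, hdz, hbv]
  set A := φ.range with hA
  have hCXcard : 4096 ≤ Nat.card CX := by
    let δ : d.E →* ↥(Subgroup.centralizer ({z} : Set G)) :=
      { toFun := fun e => e.1 * x * e.1⁻¹ * x⁻¹
        map_one' := by simp
        map_mul' := fun e e' => by
          show e.1 * e'.1 * x * (e.1 * e'.1)⁻¹ * x⁻¹ =
            e.1 * x * e.1⁻¹ * x⁻¹ * (e'.1 * x * e'.1⁻¹ * x⁻¹)
          rcases d.commE e'.1 e'.2 x hxE with h | h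
          · rw [h, mul_one, show e.1 * e'.1 * x * (e.1 * e'.1)⁻¹ * x⁻¹ =
              e.1 * (e'.1 * x * e'.1⁻¹ * x⁻¹) * x * e.1⁻¹ * x⁻¹ by group, h, mul_one]
          · rw [h, show e.1 * e'.1 * x * (e.1 * e'.1)⁻¹ * x⁻¹ =
              e.1 * (e'.1 * x * e'.1⁻¹ * x⁻¹) * x * e.1⁻¹ * x⁻¹ by group, h,
              ← (d.zc e.1).eq, ← (d.zc (e.1 * x * e.1⁻¹ * x⁻¹)).eq]
            group }
    have h := Subgroup.card_mul_index δ.ker
    rw [Subgroup.index_ker, d.cardE] at h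
    have h2 : Nat.card δ.range ≤ 2 := by
      rw [← d.card_Z]
      refine Subgroup.card_le_of_le ?_
      rintro _ ⟨e, rfl⟩
      exact d.commE' e.2 hxE
    have h3 : Nat.card δ.ker ≤ Nat.card CX := Nat.card_le_card_of_injective
      (fun e => (⟨e.1.1, e.1.2, Subgroup.mem_centralizer_singleton_iff.2
        (mul_inv_eq_iff_eq_mul.1 (mul_inv_eq_one.1 e.2))⟩ : CX))
      fun e e' he => Subtype.ext (Subtype.ext (congrArg Subtype.val he :))
    by_contra hlt
    push_neg at hlt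
    have : Nat.card δ.ker * Nat.card δ.range ≤ 4095 * 2 := Nat.mul_le_mul (by omega) h2
    omega
  have hAcard : 4096 ≤ Nat.card A :=
    hCXcard.trans (le_of_eq (Nat.card_congr (MonoidHom.ofInjective hφ).toEquiv))
  have hAp : IsPGroup 2 A := by
    rw [hA, MonoidHom.range_eq_map]
    exact (((d.pgroupE.to_le inf_le_left : IsPGroup 2 CX).to_subgroup ⊤).map φ)
  obtain ⟨T, hAT⟩ := hAp.exists_le_sylow
  have hmapA : Nat.card (A.map d.π) ≤ 256 := by
    rw [← d.card_map_sylow T]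
    exact Subgroup.card_le_of_le (Subgroup.map_mono hAT)
  have hprod := d.card_eq_map_mul T hAT
  have hAcomm : ∀ a ∈ A, ∀ a' ∈ A,
      a * a' * a⁻¹ * a'⁻¹ = 1 ∨ a * a' * a⁻¹ * a'⁻¹ = b := by
    rintro _ ⟨c, rfl⟩ _ ⟨c', rfl⟩
    rw [← map_inv, ← map_inv, ← map_mul, ← map_mul, ← map_mul]
    exact hφb _ (d.commE c.1 c.2.1 c'.1 c'.2.1)
  have hAsq : ∀ a ∈ A, a * a = 1 ∨ a * a = b := by
    rintro _ ⟨c, rfl⟩
    rw [← map_mul]
    exact hφb _ (d.sqE c.1 c.2.1)
  -- the partner lies in the 2-core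
  have hbE : b ∈ d.E := by
    by_contra hbE
    have hcent : ∀ a ∈ A ⊓ d.E, ∀ a' ∈ A, a * a' = a' * a := by
      intro a ha a' ha'
      have hm : a * a' * a⁻¹ * a'⁻¹ ∈ d.E := by
        rw [show a * a' * a⁻¹ * a'⁻¹ = a * (a' * a⁻¹ * a'⁻¹) by group]
        exact mul_mem ha.2 (d.normalE _ _ (inv_mem ha.2))
      rcases hAcomm a ha.1 a' ha' with h | h
      · exact mul_inv_eq_iff_eq_mul.1 (mul_inv_eq_one.1 h)
      · exact absurd (h ▸ hm) hbE
    set K := CX ⊓ Subgroup.centralizer (CX : Set ↥(Subgroup.centralizer ({z} : Set G))) with hK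
    have hle : A ⊓ d.E ≤ (K.subgroupOf CX).map φ := by
      rintro a ⟨⟨c, rfl⟩, haE⟩
      refine ⟨c, ⟨c.2, Subgroup.mem_centralizer_iff.2 fun c' hc' => ?_⟩, rfl⟩
      have h := hcent (φ c) ⟨⟨c, rfl⟩, haE⟩ (φ ⟨c', hc'⟩) ⟨_, rfl⟩
      rw [← map_mul, ← map_mul] at h
      exact (congrArg Subtype.val (hφ h)).symm
    have hK4 : Nat.card K ≤ 4 := by
      have hzK : d.z ∈ K := ⟨⟨d.zmem, Subgroup.mem_centralizer_singleton_iff.2 (d.zc x).eq⟩,
        Subgroup.mem_centralizer_iff.2 fun y _ => (d.zc y).eq.symm⟩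
      have h := d.card_centralizer_eq (U := K) (fun y hy => hy.1.1) hzK
      have hCXle : CX ≤ d.E ⊓ Subgroup.centralizer (K : Set _) := fun y hy =>
        ⟨hy.1, Subgroup.mem_centralizer_iff.2 fun k hk =>
          (Subgroup.mem_centralizer_iff.1 hk.2 y hy).symm⟩
      have h2 := Nat.mul_le_mul_left (Nat.card K) (hCXcard.trans (Subgroup.card_le_of_le hCXle))
      rw [h] at h2
      omega
    have h := (Subgroup.card_le_of_le hle).trans (le_of_eq
      ((Subgroup.card_map_of_injective hφ).trans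
        (Nat.card_congr (Subgroup.subgroupOfEquivOfLe (inf_le_left : K ≤ CX)).toEquiv)))
    have h4 : Nat.card A ≤ 256 * 4 := by
      rw [hprod]; exact Nat.mul_le_mul hmapA (h.trans hK4)
    omega
  have hcommA : ∀ a ∈ A ⊓ d.E, ∀ a' ∈ A ⊓ d.E, a * a' = a' * a := by
    intro a ha a' ha'
    refine mul_inv_eq_iff_eq_mul.1 (mul_inv_eq_one.1 ?_)
    rcases hAcomm a ha.1 a' ha'.1 with h | h
    · exact h
    rcases d.commE a ha.2 a' ha'.2 with h' | h'
    · exact h'
    · exact absurd (congrArg Subtype.val (h.symm.trans h')) (by rw [hdz]; exact hbne)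
  have h128 := d.card_le_of_commute (D := A ⊓ d.E) inf_le_right hcommA
  have hR : 32 ≤ Nat.card (A.map d.π) := by
    by_contra hlt
    push_neg at hlt
    have : Nat.card A ≤ 31 * 128 := by rw [hprod]; exact Nat.mul_le_mul (by omega) h128
    omega
  set A₀ := d.innPre A with hA₀
  have hA₀sq : ∀ a ∈ A₀, a * a = 1 := by
    intro a ha
    obtain ⟨t, ht, hta⟩ := d.mem_innPre.1 ha
    apply conj_injective_M
    rw [map_mul, ← hta, ← map_mul, map_one]
    rcases hAsq t ht with h | h <;> rw [h]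
    exacts [map_one _, (MonoidHom.mem_ker).1 (d.E_le hbE)]
  have hA₀16 : 16 ≤ Nat.card A₀ := by
    have h := card_le_two_mul InnM (le_of_eq inn_index) (by rw [inn_index]; norm_num) (A.map d.π)
    have e : Nat.card ↥(A.map d.π ⊓ InnM) = Nat.card A₀ := by
      rw [← Subgroup.card_map_of_injective conj_injective_M (K := A₀), hA₀, Setup.innPre,
        Subgroup.map_comap_eq, inf_comm]
    rw [e] at h
    omega
  obtain ⟨S, hS⟩ := d.innPre_eq_sylow T
  obtain ⟨g₀, -, hcases⟩ := elem_in_sylow S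
  have hA₀S : A₀ ≤ (S : Subgroup M) := hS ▸ Subgroup.comap_mono (Subgroup.map_mono hAT)
  have hbA : ∀ t ∈ A, t * b * t⁻¹ * b⁻¹ ∈ d.Z := by
    rintro _ ⟨c, rfl⟩
    have e : φ c * b * (φ c)⁻¹ * b⁻¹ = 1 := by
      have h : (c : G) * z = z * c := Subgroup.mem_centralizer_singleton_iff.1 c.1.2
      rw [mul_inv_eq_one, mul_inv_eq_iff_eq_mul]
      refine Subtype.ext ?_
      show g⁻¹ * (c : G) * g * b = b * (g⁻¹ * (c : G) * g)
      rw [hbv]
      calc g⁻¹ * (c : G) * g * (g⁻¹ * z * g) = g⁻¹ * ((c : G) * z) * g := by group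
        _ = g⁻¹ * (z * c) * g := by rw [h]
        _ = _ := by group
    rw [e]; exact one_mem _
  have hbF := d.mem_pre_F_of_commute T hAT hA₀sq hbE hbA
  obtain ⟨hbE', hbF'⟩ := d.mem_pre.1 hbF
  obtain ⟨b₀, hb₀⟩ : ∃ b₀, d.q b hbE' ∈ d.rep.F (conjS b₀ hex) := by
    rcases hcases A₀ hA₀sq hA₀16 hA₀S with h | h
    · exact ⟨g₀, h ▸ hbF'⟩
    · exact hR5 g₀ _ (h ▸ hbF')
  obtain ⟨V, hVc, hVs, hV, hVle⟩ := d.exists_elementary_over b₀
  refine ⟨V.map (Subgroup.centralizer ({z} : Set G)).subtype, b, ⟨?_, ?_⟩, ?_, ?_, ?_, hbne,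
    isConj_iff.2 ⟨g⁻¹, by rw [hbv]; group⟩⟩
  · constructor
    constructor
    rintro ⟨_, a, ha, rfl⟩ ⟨_, a', ha', rfl⟩
    apply Subtype.ext
    have h := congrArg Subtype.val (hVc a ha a' ha')
    exact h
  · rintro _ ⟨a, ha, rfl⟩
    rw [pow_two]
    exact congrArg Subtype.val (hVs a ha)
  · rw [Subgroup.card_map_of_injective Subtype.val_injective, hV]
  · refine ⟨d.z, hVle (d.mem_pre.2 ⟨d.zmem, ?_⟩), hdz⟩
    rw [d.q_one_iff.2 (Subgroup.mem_zpowers _)]
    exact one_mem _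
  · exact ⟨b, hVle (d.mem_pre.2 ⟨hbE', hb₀⟩), rfl⟩

end CfsgLib.J4Type67
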