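import Cfsg.Agent.J4Type67.Elementary

/-!
Tools on the centraliser of the involution in a group of Janko-four type: the action of elements
inducing outer automorphisms, sections over elementary subgroups, and the elementary abelian
subgroups of order `2 ^ 11` over a given hexad subgroup.
-/

set_option autoImplicit false

namespace CfsgLib.J4Type67

open scoped Pointwise

universe u

/-- The inner automorphisms of `M22`. -/
abbrev InnM : Subgroup (MulAut M) := (MulAut.conj : M →* MulAut M).range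

namespace Setup

variable {H : Type u} [Group H] [Finite H] (d : Setup H)

theorem act_one_of_mem {e : H} (he : e ∈ d.E) : d.actH e = 1 := by
  refine MulEquiv.ext fun w => ?_
  obtain ⟨a, ha, rfl⟩ := d.q_surj w
  exact (d.conj_mem_Z ha).2 (d.commE' he ha)

/-- An element inducing an outer automorphism inverts the action of the element of order three. -/
theorem act_conj_p {b : H} (hb : d.π b ∉ InnM) :
    d.actH b * d.actH d.p * (d.actH b)⁻¹ = (d.actH d.p)⁻¹ := by
  obtain ⟨a, ha, hab⟩ := d.exists_normalizer b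
  rcases d.conj_p ha with e | e
  · refine absurd ?_ hb
    rw [← hab]
    exact d.map_C.le ⟨a, d.mem_C.2 (mul_inv_eq_iff_eq_mul.1 e), rfl⟩
  · have hn : a⁻¹ * b ∈ d.π.ker := by
      rw [MonoidHom.mem_ker, map_mul, map_inv, hab, inv_mul_cancel]
    obtain ⟨i, hi⟩ := d.ker_decomp hn
    have h1 := d.act_one_of_mem hi
    rw [map_mul, map_mul, map_inv, map_zpow, mul_eq_one_iff_eq_inv, inv_mul_eq_iff_eq_mul] at h1
    have hc : d.actH a * d.actH d.p * (d.actH a)⁻¹ = (d.actH d.p)⁻¹ := by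
      rw [← map_inv d.actH a, ← map_mul, ← map_mul, e, map_inv]
    rw [h1, show d.actH a * (d.actH d.p ^ i)⁻¹ * d.actH d.p * (d.actH a * (d.actH d.p ^ i)⁻¹)⁻¹ =
      d.actH a * d.actH d.p * (d.actH a)⁻¹ by group]
    exact hc

/-- An element inducing an outer automorphism fixes at most `2 ^ 6` elements of the module. -/
theorem card_fix_outer {b : H} (hb : d.π b ∉ InnM) :
    Nat.card {w : d.W // d.actH b w = w} ≤ 64 := by
  haveI := d.rep.finite_W
  set F := {w : d.W // d.actH b w = w}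
  have hinj : Function.Injective fun x : F × F => x.1.1 * d.actH d.p x.2.1 := by
    rintro ⟨⟨a, ha⟩, ⟨c, hc⟩⟩ ⟨⟨a', ha'⟩, ⟨c', hc'⟩⟩ h
    simp only at h
    have hv : a'⁻¹ * a = d.actH d.p (c' * c⁻¹) := by
      rw [map_mul, map_inv]
      calc a'⁻¹ * a = a'⁻¹ * (a * d.actH d.p c) * (d.actH d.p c)⁻¹ := by group
        _ = _ := by rw [h]; group
    have hu : d.actH b (c' * c⁻¹) = c' * c⁻¹ := by rw [map_mul, map_inv, hc, hc']
    have hvb : d.actH b (a'⁻¹ * a) = a'⁻¹ * a := by rw [map_mul, map_inv, ha, ha']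
    set u := c' * c⁻¹
    set P := d.actH d.p
    have h1 : P u = P⁻¹ u := by
      rw [← hv]
      conv_lhs => rw [← hvb, hv]
      rw [show d.actH b (P u) = (d.actH b * P * (d.actH b)⁻¹) (d.actH b u) by
        simp [MulAut.mul_apply], d.act_conj_p hb, hu]
    have h2 : P (P u) = u := by
      conv_lhs => rw [h1]
      simp
    have h3 : P (P (P u)) = u := by
      have e : P ^ 3 = 1 := by rw [← map_pow, d.p3, map_one]
      calc P (P (P u)) = (P ^ 3) u := by simp [pow_succ, MulAut.mul_apply]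
        _ = u := by rw [e]; rfl
    rw [h2] at h3
    have h4 : u = 1 := d.rep.fpf u h3
    have hcc : c = c' := (mul_inv_eq_one.1 h4).symm
    subst hcc
    exact Prod.ext (Subtype.ext (mul_right_cancel h)) rfl
  have h := Nat.card_le_card_of_injective _ hinj
  rw [Nat.card_prod, d.rep.card] at h
  by_contra hlt
  push_neg at hlt
  have := Nat.mul_le_mul hlt.le hlt.le
  have h65 : 65 * 65 ≤ Nat.card F * Nat.card F := Nat.mul_le_mul hlt hlt
  omega

theorem card_map_sylow (T : Sylow 2 H) : Nat.card ((T : Subgroup H).map d.π) = 256 := by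
  haveI : Fact (Nat.Prime 2) := ⟨Nat.prime_two⟩
  have hfA : (887040 : ℕ).factorization 2 = 8 := by
    rw [show (887040 : ℕ) = 2 ^ 8 * 3465 by norm_num,
      Nat.factorization_mul (by norm_num) (by norm_num), Nat.Prime.factorization_pow Nat.prime_two]
    simp [Nat.factorization_eq_zero_of_not_dvd (by norm_num : ¬(2 ∣ 3465))]
  have hT := Sylow.card_eq_multiplicity (T.mapSurjective d.surj)
  rw [card_mulAut, hfA] at hT
  rw [show (256 : ℕ) = 2 ^ 8 by norm_num, ← hT]
  rfl

/-- The order of a 2-subgroup is the product of its image and its part inside the 2-core. -/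
theorem card_eq_map_mul {L : Subgroup H} (T : Sylow 2 H) (hL : L ≤ (T : Subgroup H)) :
    Nat.card L = Nat.card (L.map d.π) * Nat.card ↥(L ⊓ d.E) := by
  let f : L →* MulAut M := d.π.comp L.subtype
  have h := Subgroup.card_mul_index f.ker
  rw [Subgroup.index_ker] at h
  have hr : f.range = L.map d.π := by
    rw [MonoidHom.range_eq_map, ← Subgroup.map_map, ← MonoidHom.range_eq_map,
      Subgroup.range_subtype]
  have hk : Nat.card f.ker = Nat.card ↥(L ⊓ d.E) := Nat.card_congr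
    { toFun := fun v => ⟨v.1.1, v.1.2, d.ker_inf_sylow T (hL v.1.2) v.2⟩
      invFun := fun x => ⟨⟨x.1, x.2.1⟩, d.E_le x.2.2⟩
      left_inv := fun _ => rfl
      right_inv := fun _ => rfl }
  rw [hr, hk] at h
  rw [← h, mul_comm]

/-- An element of the 2-core fixed by lifts of an elementary subgroup lies in the preimage of its
fixed space. -/
theorem mem_pre_F_of_commute (T : Sylow 2 H) {L : Subgroup H} (hL : L ≤ (T : Subgroup H))
    (hsq : ∀ a ∈ d.innPre L, a * a = 1) {y : H} (hy : y ∈ d.E)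
    (hc : ∀ t ∈ L, t * y * t⁻¹ * y⁻¹ ∈ d.Z) : y ∈ d.pre (d.rep.F (d.innPre L)) := by
  refine d.mem_pre.2 ⟨hy, ?_⟩
  rintro x ⟨hx, hxx⟩
  obtain ⟨t, ht, hta⟩ := d.mem_innPre.1 hx
  obtain ⟨c, -, hte, hσ, hcc⟩ := d.decomp T (hL ht) hta (hsq _ hx)
  have he : x = QuotientGroup.mk c := d.rep.lift_two_unique (hσ.symm) hxx hcc
  rw [he, ← d.act_decomp hte]
  exact (d.conj_mem_Z hy).2 (hc t ht)

include d in
/-- Every hexad subgroup lies under an elementary abelian subgroup of order `2 ^ 11`. -/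
theorem exists_elementary_over (b : M) : ∃ V : Subgroup H,
    (∀ a ∈ V, ∀ a' ∈ V, a * a' = a' * a) ∧ (∀ a ∈ V, a * a = 1) ∧ Nat.card V = 2 ^ 11 ∧
      d.pre (d.rep.F (conjS b hex)) ≤ V := by
  obtain ⟨T⟩ : Nonempty (Sylow 2 H) := inferInstance
  obtain ⟨S, hS⟩ := d.innPre_eq_sylow T
  obtain ⟨g, hgS, hcases⟩ := elem_in_sylow S
  rw [← hS] at hgS hcases
  obtain ⟨V, ⟨hVT, ⟨hVc, hVs⟩, hV⟩, -⟩ := d.existsUnique_elementary T
  obtain ⟨-, hVE⟩ := d.shape T hcases hVT hVc hVs hV
  have hm : MulAut.conj (b * g⁻¹) ∈ d.C.map d.π := by rw [d.map_C]; exact ⟨_, rfl⟩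
  obtain ⟨c, hc, hcb⟩ := hm
  have hσ : d.sigma ⟨c, hc⟩ = b * g⁻¹ := conj_injective_M (by rw [d.conj_sigma]; exact hcb)
  refine ⟨conjS c V, ?_, ?_, ?_, ?_⟩
  · rintro _ ⟨a, ha, rfl⟩ _ ⟨a', ha', rfl⟩
    rw [← map_mul, hVc a ha a' ha', map_mul]
  · rintro _ ⟨a, ha, rfl⟩
    rw [← map_mul, hVs a ha, map_one]
  · rw [card_conjS, hV]
  · intro x hx
    obtain ⟨hxE, hxF⟩ := d.mem_pre.1 hx
    rw [mem_conjS]
    have hxE' : c⁻¹ * x * c ∈ d.E := by simpa using d.normalE c⁻¹ x hxE
    refine (Subgroup.mem_inf.1 (hVE.ge (d.mem_pre.2 ⟨hxE', ?_⟩))).1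
    have hb : conjS b hex = conjS (d.rep.proj (QuotientGroup.mk ⟨c, hc⟩)) (conjS g hex) := by
      show _ = conjS (d.sigma ⟨c, hc⟩) (conjS g hex)
      rw [hσ]
      ext a
      rw [mem_conjS, mem_conjS, mem_conjS]
      simp [mul_assoc]
    rw [hb, d.rep.mem_F_conj, ← QuotientGroup.mk_inv] at hxF
    have e : d.q (c⁻¹ * x * c) hxE' = d.actH c⁻¹ (d.q x hxE) := by
      rw [d.actH_q]; simp only [inv_inv]
    rw [e]
    exact hxF

end Setup

end CfsgLib.J4Type67
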